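import Mathlib
import Cfsg.Agent.SLE.Root

/-! A Chevalley datum and a root table for every positive definite simply laced Cartan matrix.
The roots are the vectors of norm two. -/

set_option autoImplicit false

namespace Cfsg.Agent.DRT

open Cfsg.Lie Cfsg.Agent.Chev Finset

/-- the bilinear form of a matrix -/
def bil {n : ℕ} (A : Fin n → Fin n → ℤ) : (Fin n → ℤ) →ₗ[ℤ] (Fin n → ℤ) →ₗ[ℤ] ℤ :=
  LinearMap.mk₂ ℤ (fun u v => ∑ i, u i * scoroot A i v)
    (fun a b v => by simp [add_mul, sum_add_distrib]) (fun c a v => by simp [mul_sum, mul_assoc])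
    (fun a u v => by simp [mul_add, sum_add_distrib]) fun c a v => by
      simp only [map_smul, smul_eq_mul, mul_sum, mul_left_comm]

theorem bil_apply {n : ℕ} (A : Fin n → Fin n → ℤ) (u v : Fin n → ℤ) :
    bil A u v = ∑ i, u i * scoroot A i v := rfl

/-- A connected positive definite simply laced Cartan matrix. -/
structure PD (n : ℕ) where
  A : Fin n → Fin n → ℤ
  symm : ∀ i j, A i j = A j i
  diag : ∀ i, A i i = 2
  off : ∀ i j, i ≠ j → A i j = 0 ∨ A i j = -1
  pos : ∀ v ≠ 0, 0 < bil A v v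
  fin : {v | bil A v v = 2}.Finite
  conn : ∀ J : Set (Fin n), J.Nonempty → Jᶜ.Nonempty → ∃ i ∈ J, ∃ j ∉ J, A i j ≠ 0
  npos : 0 < n

theorem exists_val {n : ℕ} (S : Finset (Fin n → ℤ)) : ∃ f : (Fin n → ℤ) →+ ℤ,
    (∀ i, 0 < f (sroot i)) ∧ ∀ u ∈ S, ∀ v ∈ S, f u = f v → u = v := by
  classical
  let p : (Fin n → ℤ) → Polynomial ℤ := fun w => ∑ i : Fin n, Polynomial.monomial i (w i)
  have hp : ∀ w, w ≠ 0 → p w ≠ 0 := fun w hw e => hw (funext fun i => by
    have := congrArg (Polynomial.coeff · i) e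
    simpa [p, Polynomial.finsetSum_coeff, Polynomial.coeff_monomial, Fin.val_inj] using this)
  let q := ∏ x ∈ (S ×ˢ S).filter (fun x => x.1 ≠ x.2), p (x.1 - x.2)
  have hq : q ≠ 0 := prod_ne_zero_iff.2 fun x hx => hp _ (sub_ne_zero.2 (mem_filter.1 hx).2)
  obtain ⟨M, hM, h⟩ := (Set.Ioi_infinite (0 : ℤ)).exists_notMem_finset q.roots.toFinset
  refine ⟨⟨⟨fun w => ∑ i, w i * M ^ (i : ℕ), by simp⟩, fun u v => by
    simp [add_mul, sum_add_distrib]⟩, fun i => ?_, fun u hu v hv e => ?_⟩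
  · simpa [sroot, Pi.single_apply] using pow_pos (show 0 < M from hM) i
  · by_contra hne
    refine h (Multiset.mem_toFinset.2 ((Polynomial.mem_roots hq).2 ?_))
    rw [Polynomial.IsRoot, Polynomial.eval_prod]
    refine prod_eq_zero (i := (u, v)) (by simp [hu, hv, hne]) ?_
    simp only [AddMonoidHom.coe_mk, ZeroHom.coe_mk] at e
    simp [p, Polynomial.eval_finsetSum, e]

namespace PD

variable {n : ℕ} (R : PD n)

theorem bil_symm (u v : Fin n → ℤ) : bil R.A u v = bil R.A v u := by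
  simp only [bil_apply, scoroot, LinearMap.coe_mk, AddHom.coe_mk, mul_sum]
  rw [sum_comm]
  exact sum_congr rfl fun i _ => sum_congr rfl fun j _ => by rw [R.symm]; ring

theorem bil_sroot (i : Fin n) (v : Fin n → ℤ) : bil R.A (sroot i) v = scoroot R.A i v := by
  simp [bil_apply, sroot, Pi.single_apply]

theorem bil_ss (i j : Fin n) : bil R.A (sroot i) (sroot j) = R.A i j := by
  rw [bil_sroot]; simp [scoroot, sroot, Pi.single_apply]

theorem even (v : Fin n → ℤ) : Even (bil R.A v v) := by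
  rw [← univ_sum_single v]
  refine sum_induction _ (fun w => Even (bil R.A w w)) (fun a b ha hb => ?_) (by simp) fun i _ => ?_
  · simp only [map_add, LinearMap.add_apply, R.bil_symm b a]
    obtain ⟨c, hc⟩ := ha
    obtain ⟨d, hd⟩ := hb
    exact ⟨c + d + bil R.A a b, by rw [hc, hd]; ring⟩
  · rw [show (Pi.single i (v i) : Fin n → ℤ) = v i • sroot i by simp [sroot, ← Pi.single_smul]]
    simp only [map_smul, LinearMap.smul_apply, bil_ss, R.diag, smul_eq_mul]
    exact ⟨v i * v i, by ring⟩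

/-- the roots -/
noncomputable def Φ : Finset (Fin n → ℤ) := R.fin.toFinset

theorem mem_Φ {v : Fin n → ℤ} : v ∈ R.Φ ↔ bil R.A v v = 2 := R.fin.mem_toFinset

theorem neg_mem {v : Fin n → ℤ} (h : v ∈ R.Φ) : -v ∈ R.Φ := by simpa [mem_Φ] using h

theorem sroot_mem (i : Fin n) : sroot i ∈ R.Φ := by rw [mem_Φ, bil_ss, R.diag]

theorem le_one {u v : Fin n → ℤ} (hu : u ∈ R.Φ) (hv : v ∈ R.Φ) (h : v ≠ u) : bil R.A u v ≤ 1 := by
  have := R.pos _ (sub_ne_zero.2 h)
  simp only [map_sub, LinearMap.sub_apply, R.mem_Φ.1 hu, R.mem_Φ.1 hv, R.bil_symm v u] at this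
  omega

theorem add_mem_iff {u v : Fin n → ℤ} (hu : u ∈ R.Φ) (hv : v ∈ R.Φ) :
    u + v ∈ R.Φ ↔ bil R.A u v = -1 := by
  simp only [mem_Φ, map_add, LinearMap.add_apply, R.mem_Φ.1 hu, R.mem_Φ.1 hv, R.bil_symm v u]
  omega

theorem sign {v : Fin n → ℤ} (h : v ∈ R.Φ) : 0 ≤ v ∨ v ≤ 0 := by
  by_contra hn
  rw [not_or, ← negPart_eq_zero, ← posPart_eq_zero] at hn
  have h1 := R.pos _ hn.1
  have h2 := R.pos _ hn.2
  obtain ⟨a, ha⟩ := R.even v⁻
  obtain ⟨b, hb⟩ := R.even v⁺
  have h3 : bil R.A v⁺ v⁻ ≤ 0 := by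
    simp only [bil_apply, scoroot, LinearMap.coe_mk, AddHom.coe_mk, mul_sum]
    refine sum_nonpos fun i _ => sum_nonpos fun j _ => ?_
    by_cases e : i = j
    · subst e
      rcases le_total 0 (v i) with c | c <;> simp [c]
    · have := mul_nonneg (posPart_nonneg v i) (negPart_nonneg v j)
      rcases R.off i j e with c | c <;> rw [c] <;> linarith
  have h4 := R.mem_Φ.1 h
  rw [← posPart_sub_negPart v] at h4
  simp only [map_sub, LinearMap.sub_apply, R.bil_symm v⁻ v⁺] at h4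
  omega

/-- the functional ordering the roots -/
noncomputable def val : (Fin n → ℤ) →+ ℤ := (exists_val R.Φ).choose

theorem val_inj {u v : Fin n → ℤ} (hu : u ∈ R.Φ) (hv : v ∈ R.Φ) (e : R.val u = R.val v) : u = v :=
  (exists_val R.Φ).choose_spec.2 u hu v hv e

theorem val_nonneg {v : Fin n → ℤ} (h : 0 ≤ v) : 0 ≤ R.val v := by
  rw [← univ_sum_single v, map_sum]
  refine sum_nonneg fun i _ => ?_
  rw [show (Pi.single i (v i) : Fin n → ℤ) = v i • sroot i by simp [sroot, ← Pi.single_smul],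
    map_zsmul]
  exact mul_nonneg (h i) ((exists_val R.Φ).choose_spec.1 i).le

theorem val_ne {v : Fin n → ℤ} (h : v ∈ R.Φ) : R.val v ≠ 0 := fun e => by
  have := R.val_inj h (R.neg_mem h) (by rw [map_neg, e, neg_zero])
  have h2 := R.mem_Φ.1 h
  nth_rewrite 1 [this] at h2
  rw [map_neg, LinearMap.neg_apply, R.mem_Φ.1 h] at h2
  omega

theorem val_pos_iff {v : Fin n → ℤ} (h : v ∈ R.Φ) : 0 < R.val v ↔ 0 ≤ v := by
  refine ⟨fun c => (R.sign h).resolve_right fun e => ?_,
    fun c => (R.val_nonneg c).lt_of_ne' (R.val_ne h)⟩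
  have := R.val_nonneg (neg_nonneg.2 e)
  rw [map_neg] at this
  omega

/-- the index of a root -/
noncomputable def ix (v : Fin n → ℤ) : ℕ := #{u ∈ R.Φ | R.val u < R.val v}

/-- the number of positive roots -/
noncomputable def N : ℕ := #{u ∈ R.Φ | R.val u < 0}

theorem card_gt (c : ℤ) : #{u ∈ R.Φ | R.val u < -c} = #{u ∈ R.Φ | c < R.val u} :=
  card_bij' (fun u _ => -u) (fun u _ => -u)
    (fun u h => by simp only [mem_filter, map_neg] at h ⊢; exact ⟨R.neg_mem h.1, by omega⟩)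
    (fun u h => by simp only [mem_filter, map_neg] at h ⊢; exact ⟨R.neg_mem h.1, by omega⟩)
    (by simp) (by simp)

theorem card_Φ : #R.Φ = 2 * R.N := by
  rw [← card_filter_add_card_filter_not (fun u => R.val u < 0), two_mul, N]
  congr 1
  rw [← neg_zero, card_gt, neg_zero]
  exact congrArg card (filter_congr fun u hu => by have := R.val_ne hu; omega)

theorem ix_lt_ix {u v : Fin n → ℤ} (hu : u ∈ R.Φ) (h : R.val u < R.val v) : R.ix u < R.ix v :=
  card_lt_card ⟨fun w hw => by simp only [mem_filter] at hw ⊢; exact ⟨hw.1, by omega⟩,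
    fun e => by simpa using e (mem_filter.2 ⟨hu, h⟩)⟩

theorem ix_lt {v : Fin n → ℤ} (h : v ∈ R.Φ) : R.ix v < 2 * R.N := by
  rw [← card_Φ]
  exact card_lt_card ⟨filter_subset _ _, fun e => by simpa using e h⟩

theorem ix_lt_iff {u v : Fin n → ℤ} (hu : u ∈ R.Φ) (hv : v ∈ R.Φ) :
    R.ix u < R.ix v ↔ R.val u < R.val v := by
  refine ⟨fun h => ?_, R.ix_lt_ix hu⟩
  rcases lt_trichotomy (R.val u) (R.val v) with c | c | c
  · exact c
  · rw [R.val_inj hu hv c] at h; omega
  · have := R.ix_lt_ix hv c; omega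

theorem ix_inj {u v : Fin n → ℤ} (hu : u ∈ R.Φ) (hv : v ∈ R.Φ) (e : R.ix u = R.ix v) : u = v := by
  have h1 := R.ix_lt_iff hu hv
  have h2 := R.ix_lt_iff hv hu
  exact R.val_inj hu hv (by omega)

theorem exists_ix {r : ℕ} (hr : r < 2 * R.N) : ∃ v ∈ R.Φ, R.ix v = r := by
  obtain ⟨v, hv, e⟩ := surj_on_of_inj_on_of_card_le (s := R.Φ) (t := range (2 * R.N))
    (fun v _ => R.ix v) (fun v h => mem_range.2 (R.ix_lt h)) (fun _ _ a b => R.ix_inj a b)
    (by rw [card_range, card_Φ]) r (mem_range.2 hr)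
  exact ⟨v, hv, e.symm⟩

theorem ix_neg {v : Fin n → ℤ} (h : v ∈ R.Φ) : R.ix (-v) = 2 * R.N - 1 - R.ix v := by
  have h1 := card_filter_add_card_filter_not (s := R.Φ) fun u => R.val u < R.val v
  have h2 : ({u ∈ R.Φ | ¬ R.val u < R.val v} : Finset _) = insert v {u ∈ R.Φ | R.val v < R.val u} := by
    ext u
    simp only [mem_filter, mem_insert]
    refine ⟨fun c => ?_, ?_⟩
    · by_cases e : R.val u = R.val v
      · exact Or.inl (R.val_inj c.1 h e)
      · exact Or.inr ⟨c.1, by omega⟩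
    · rintro (rfl | c)
      · exact ⟨h, lt_irrefl _⟩
      · exact ⟨c.1, by omega⟩
  rw [h2, card_insert_of_notMem (by simp), card_Φ] at h1
  rw [ix, map_neg, card_gt, ix]
  omega

theorem N_le_ix {v : Fin n → ℤ} (h : v ∈ R.Φ) : R.N ≤ R.ix v ↔ 0 ≤ v := by
  rw [← R.val_pos_iff h]
  have h1 := R.ix_neg h
  have h2 := R.ix_lt_iff (R.neg_mem h) h
  have h3 := R.ix_lt h
  rw [map_neg] at h2
  omega

open Classical in
/-- the root with a given index -/
noncomputable def vec (r : ℕ) : Fin n → ℤ := if h : r < 2 * R.N then (R.exists_ix h).choose else 0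

theorem vec_mem {r : ℕ} (h : r < 2 * R.N) : R.vec r ∈ R.Φ := by
  rw [vec, dif_pos h]; exact (R.exists_ix h).choose_spec.1

theorem ix_vec {r : ℕ} (h : r < 2 * R.N) : R.ix (R.vec r) = r := by
  rw [vec, dif_pos h]; exact (R.exists_ix h).choose_spec.2

theorem vec_ix {v : Fin n → ℤ} (h : v ∈ R.Φ) : R.vec (R.ix v) = v :=
  R.ix_inj (R.vec_mem (R.ix_lt h)) h (R.ix_vec (R.ix_lt h))

open Classical in
/-- the chain entry -/
noncomputable def ent (r s : ℕ) : List (ℕ × ℤ) :=
  if R.vec r + R.vec s ∈ R.Φ then [(R.ix (R.vec r + R.vec s), 1)] else []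

/-- The datum. -/
@[reducible] noncomputable def dat : ChevalleyDatum where
  rank := n
  nroots := 2 * R.N
  simpleIdx := Array.ofFn fun i : Fin n => R.ix (sroot i)
  negIdx := Array.ofFn fun r : Fin (2 * R.N) => 2 * R.N - 1 - r
  coroot := Array.ofFn fun r : Fin (2 * R.N) => Array.ofFn (R.vec r)
  cartanSR := Array.ofFn fun i : Fin n => Array.ofFn fun r : Fin (2 * R.N) => scoroot R.A i (R.vec r)
  chain := Array.ofFn fun r : Fin (2 * R.N) => Array.ofFn fun s : Fin (2 * R.N) =>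
    (s, (R.ent r s).toArray)

theorem simple_eq (i : Fin n) : R.dat.simple i = R.ix (sroot i) := by
  simp [ChevalleyDatum.simple]

theorem neg_eq {r : ℕ} (h : r < 2 * R.N) : R.dat.neg r = 2 * R.N - 1 - r := by
  simp [ChevalleyDatum.neg, h]

theorem cvec_eq {r : ℕ} (h : r < 2 * R.N) : cvec R.dat r = R.vec r := by
  funext j; simp [cvec, h]

theorem cartan_eq (i : Fin n) {r : ℕ} (h : r < 2 * R.N) :
    R.dat.cartan i r = bil R.A (sroot i) (R.vec r) := by
  simp [ChevalleyDatum.cartan, h, bil_sroot]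

theorem cm_eq : cm R.dat = R.A := by
  funext i j
  rw [cm, simple_eq, cartan_eq _ _ (R.ix_lt (R.sroot_mem j)), R.vec_ix (R.sroot_mem j), bil_ss]

theorem pairing_eq' {r s : ℕ} (hr : r < 2 * R.N) (hs : s < 2 * R.N) :
    R.dat.pairing r s = bil R.A (R.vec r) (R.vec s) := by
  rw [pairing_eq, R.cvec_eq hr, bil_apply]
  exact sum_congr rfl fun i _ => by rw [R.cartan_eq i hs, bil_sroot]

theorem vec_neg {r : ℕ} (h : r < 2 * R.N) : R.vec (R.dat.neg r) = -R.vec r := by
  rw [R.neg_eq h, ← R.vec_ix (R.neg_mem (R.vec_mem h)), R.ix_neg (R.vec_mem h), R.ix_vec h]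

theorem neg_lt {r : ℕ} (h : r < 2 * R.N) : R.dat.neg r < 2 * R.N := by rw [R.neg_eq h]; omega

theorem chainEntry_eq {r s : ℕ} (hr : r < 2 * R.N) (hs : s < 2 * R.N) :
    R.dat.chainEntry r s = R.ent r s := by
  have : ((R.dat.chain.getD r #[]).toList.find? fun e => e.1 = s) = some (s, (R.ent r s).toArray) := by
    simp only [Array.getD_eq_getD_getElem?, Array.getElem?_ofFn, hr, dif_pos, Option.getD_some,
      Array.toList_ofFn, List.find?_eq_some_iff_getElem]
    exact ⟨by simp, s, by simpa, by simp, fun j hj => by simp; omega⟩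
  rw [ChevalleyDatum.chainEntry, this]

theorem refl_spec (i : Fin n) {s : ℕ} (hs : s < 2 * R.N) : R.dat.reflectRoot i s < 2 * R.N ∧
    R.vec (R.dat.reflectRoot i s) = R.vec s - R.dat.cartan i s • sroot i := by
  have hm := R.sroot_mem i
  have hp : R.dat.simple i < 2 * R.N := by rw [simple_eq]; exact R.ix_lt hm
  have vp : R.vec (R.dat.simple i) = sroot i := by rw [simple_eq, R.vec_ix hm]
  have hc := R.cartan_eq i hs
  have sm := R.vec_mem hs
  have inj : ∀ {r}, r < 2 * R.N → R.vec s = R.vec r → s = r := fun hr e => by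
    rw [← R.ix_vec hs, e, R.ix_vec hr]
  rw [ChevalleyDatum.reflectRoot]
  split_ifs with h1 h2 h3 h4
  · refine ⟨R.neg_lt hp, ?_⟩
    rw [hc, R.vec_neg hp, h1, vp, R.mem_Φ.1 hm]; module
  · refine ⟨hp, ?_⟩
    rw [hc, h2, R.vec_neg hp, vp, map_neg, R.mem_Φ.1 hm]; module
  · have := R.le_one hm sm fun e => h1 (inj hp (e.trans vp.symm))
    have e : R.dat.cartan i s = 1 := by omega
    have h5 : -sroot i + R.vec s ∈ R.Φ := (R.add_mem_iff (R.neg_mem hm) sm).2 (by
      rw [map_neg, LinearMap.neg_apply, ← hc, e])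
    simp only [e, ChevalleyDatum.chainRoot, R.chainEntry_eq (R.neg_lt hp) hs, ent, R.vec_neg hp, vp,
      if_pos h5]
    exact ⟨R.ix_lt h5, (R.vec_ix h5).trans (by module)⟩
  · have := R.le_one (R.neg_mem hm) sm fun e => h2 (inj (R.neg_lt hp) (by rw [R.vec_neg hp, vp, e]))
    rw [map_neg, LinearMap.neg_apply] at this
    have e : R.dat.cartan i s = -1 := by omega
    have h5 : sroot i + R.vec s ∈ R.Φ := (R.add_mem_iff hm sm).2 (by rw [← hc, e])
    simp only [e, ChevalleyDatum.chainRoot, R.chainEntry_eq hp hs, ent, vp, if_pos h5]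
    exact ⟨R.ix_lt h5, (R.vec_ix h5).trans (by module)⟩
  · exact ⟨hs, by rw [show R.dat.cartan i s = 0 by omega]; simp⟩

theorem pos_iff {r : ℕ} (h : r < 2 * R.N) : R.N ≤ r ↔ 0 ≤ R.vec r := by
  rw [← R.N_le_ix (R.vec_mem h), R.ix_vec h]

/-- The Coxeter matrix. -/
def cox : CoxeterMatrix (Fin n) where
  M := Matrix.of fun i j => if i = j then 1 else if R.A i j = 0 then 2 else 3
  isSymm := Matrix.IsSymm.ext fun i j => by simp [eq_comm (a := i), R.symm i j]
  diagonal i := by simp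
  off_diagonal i j h := by simp only [Matrix.of_apply, if_neg h]; split_ifs <;> simp

/-- The root table. -/
@[reducible] noncomputable def tab : RootTable R.dat where
  N := R.N
  vec := R.vec
  val := R.val
  M := R.cox
  isCartan := by
    rw [cm_eq]
    refine ⟨R.diag, fun i j h => ?_⟩
    have e : R.cox i j = if R.A i j = 0 then 2 else 3 := if_neg h
    rcases R.off i j h with c | c <;> simp [e, c, ← R.symm i j]
  nroots_eq := rfl
  neg_eq _ := R.neg_eq
  pos_iff r := by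
    refine ⟨fun ⟨h, c⟩ => ⟨(R.pos_iff h).2 fun j => c _ ?_, h⟩, fun ⟨c, h⟩ => ⟨h, fun a ha => ?_⟩⟩
    · simp [show r < 2 * R.N from h]
    · simp only [Array.getD_eq_getD_getElem?, Array.getElem?_ofFn, h, dif_pos, Option.getD_some,
        Array.toList_ofFn, List.mem_ofFn] at ha
      obtain ⟨j, rfl⟩ := ha
      exact (R.pos_iff h).1 c j
  neg_iff r := by
    have key : ∀ h : r < 2 * R.N, r < R.N ↔ R.vec r ≤ 0 := fun h => by
      rw [← neg_nonneg, ← R.vec_neg h, ← R.pos_iff (R.neg_lt h), R.neg_eq h]; omega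
    refine ⟨fun ⟨h, c⟩ => (key h).2 fun j => c _ ?_, fun c => ⟨by change r < 2 * R.N; omega, fun a ha => ?_⟩⟩
    · simp [show r < 2 * R.N from h]
    · have h : r < 2 * R.N := by omega
      simp only [Array.getD_eq_getD_getElem?, Array.getElem?_ofFn, h, dif_pos, Option.getD_some,
        Array.toList_ofFn, List.mem_ofFn] at ha
      obtain ⟨j, rfl⟩ := ha
      exact (key h).1 c j
  simple_lt i := by rw [simple_eq]; exact R.ix_lt (R.sroot_mem i)
  vec_simple i := by rw [simple_eq, R.vec_ix (R.sroot_mem i)]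
  cvec_simple i := by rw [simple_eq, R.cvec_eq (R.ix_lt (R.sroot_mem i)), R.vec_ix (R.sroot_mem i)]
  vec_neg _ := R.vec_neg
  cvec_neg r h := by rw [R.cvec_eq h, R.cvec_eq (R.neg_lt h), R.vec_neg h]
  vec_nonneg r a h := (R.pos_iff h).1 a
  cvec_nonneg r a h := by rw [R.cvec_eq h]; exact (R.pos_iff h).1 a
  cvec_eq_zero_iff r h j := by rw [R.cvec_eq h]
  val_lt_succ r h := by
    rw [← R.ix_lt_iff (R.vec_mem (by omega)) (R.vec_mem h), R.ix_vec h, R.ix_vec (by omega)]; omega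
  cartan_eq i r h := by rw [R.cartan_eq i h, cm_eq, bil_sroot]
  refl_lt i s h := (R.refl_spec i h).1
  vec_refl' i s h := (R.refl_spec i h).2
  cvec_refl i s h := by
    have hm := R.sroot_mem i
    rw [R.cvec_eq (R.refl_spec i h).1, (R.refl_spec i h).2, R.cvec_eq h, simple_eq,
      R.pairing_eq' h (R.ix_lt hm), R.vec_ix hm, R.cartan_eq i h, R.bil_symm]
  refl_pos i s a h c := by
    obtain ⟨h1, h2⟩ := R.refl_spec i h
    rw [R.pos_iff h1]
    refine (R.sign (R.vec_mem h1)).resolve_right fun e => c ?_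
    have h3 := (R.pos_iff h).1 a
    have h4 : R.vec s = R.vec s i • sroot i := funext fun j => by
      by_cases f : j = i
      · simp [f, sroot]
      · have h5 := e j
        have h6 := h3 j
        simp only [h2, Pi.sub_apply, Pi.smul_apply, sroot, Pi.single_eq_of_ne f, smul_zero, sub_zero,
          Pi.zero_apply] at h5 h6 ⊢
        omega
    have h5 := R.mem_Φ.1 (R.vec_mem h)
    rw [h4] at h5
    simp only [map_smul, LinearMap.smul_apply, bil_ss, R.diag, smul_eq_mul] at h5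
    have h6 : R.vec s i = 1 := by have := h3 i; simp only [Pi.zero_apply] at this; nlinarith
    rw [simple_eq, ← R.ix_vec h, h4, h6, one_smul]
  pairing_self r h := by rw [R.pairing_eq' h h, R.mem_Φ.1 (R.vec_mem h)]
  chain_vec r h e he := by
    simp only [Array.getD_eq_getD_getElem?, Array.getElem?_ofFn, h, dif_pos, Option.getD_some,
      Array.toList_ofFn, List.mem_ofFn] at he
    obtain ⟨s, rfl⟩ := he
    refine ⟨s.2, fun q hq => ?_⟩
    simp only [ent] at hq
    split_ifs at hq with c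
    · obtain rfl : q = ((R.ix (R.vec r + R.vec s), 1), 0) := by simpa using hq
      exact ⟨R.ix_lt c, by simpa using R.vec_ix c⟩
    · simp at hq
  connected := by rw [cm_eq]; exact R.conn
  rank_pos := R.npos

theorem commTerms_eq {r s : ℕ} (hr : r < 2 * R.N) (hs : s < 2 * R.N) : R.dat.commTerms r s =
    if R.dat.pairing r s = -1 then [(R.ix (R.vec r + R.vec s), 1, 1, 1)] else [] := by
  simp only [R.pairing_eq' hr hs, ← R.add_mem_iff (R.vec_mem hr) (R.vec_mem hs), ChevalleyDatum.commTerms, ChevalleyDatum.chainRoot, ChevalleyDatum.chainM,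
    R.chainEntry_eq hr hs, R.chainEntry_eq hs hr, ent, add_comm (R.vec s)]
  split_ifs <;> simp

/-- `SL` from the transitivity statements -/
theorem sl (h0 : ∀ r < 2 * R.N, ∀ s < 2 * R.N, ∃ w : R.tab.W, R.tab.act w r = s)
    (h1 : ∀ r < 2 * R.N, ∀ s < 2 * R.N, ∀ r' < 2 * R.N, ∀ s' < 2 * R.N, R.dat.pairing r s = 1 →
      R.dat.pairing r' s' = 1 → ∃ w : R.tab.W, R.tab.act w r = r' ∧ R.tab.act w s = s')
    (h2 : ∃ a < 2 * R.N, ∃ b < 2 * R.N, ∃ c < 2 * R.N,
      R.dat.pairing a b = 1 ∧ R.dat.pairing a c = 1 ∧ R.dat.pairing b c = 1) : SLE.SL R.tab where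
  symm r hr s hs := by rw [R.pairing_eq' hr hs, R.pairing_eq' hs hr, bil_symm]
  le_one r hr s hs h := by
    rw [R.pairing_eq' hr hs]
    exact R.le_one (R.vec_mem hr) (R.vec_mem hs) fun e => h (R.tab.vec_inj hs hr e)
  ct0 r hr s hs h := by rw [R.commTerms_eq hr hs, if_neg (by omega)]
  ct1 r hr s hs h := ⟨_, 1, Or.inl rfl, by rw [R.commTerms_eq hr hs, if_pos h]⟩
  tr0 := h0
  tr1 := h1
  tri := h2

end PD

end Cfsg.Agent.DRT
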