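import Mathlib
import Cfsg.Agent.DRT.Gen
import Cfsg.Agent.SLE.Base

/-! The root table of type `D_n`, `n = m + 4`; `rt a b` is the index of `ε a - ε b`. -/

set_option autoImplicit false

namespace Cfsg.Agent.DRT

open Cfsg.Lie Cfsg.Agent.Chev Finset Sum SLE

section Eps

variable {n : ℕ}

/-- the coordinate of a weight -/
def idx (a : Fin n ⊕ Fin n) : Fin n := a.elim id id

@[simp] theorem idx_inl (i : Fin n) : idx (inl i) = i := rfl
@[simp] theorem idx_inr (i : Fin n) : idx (inr i) = i := rfl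
@[simp] theorem idx_swap (a : Fin n ⊕ Fin n) : idx a.swap = idx a := by cases a <;> rfl

theorem idx_eq_iff {a b : Fin n ⊕ Fin n} : idx a = idx b ↔ a = b ∨ a = b.swap := by
  cases a <;> cases b <;> simp

theorem ne_swap (a : Fin n ⊕ Fin n) : a ≠ a.swap := by cases a <;> simp

theorem ne_of_idx {a b : Fin n ⊕ Fin n} (h : idx a ≠ idx b) : a ≠ b := fun e => h (e ▸ rfl)

theorem ne_swap_of_idx {a b : Fin n ⊕ Fin n} (h : idx a ≠ idx b) : a ≠ b.swap :=
  fun e => h (idx_eq_iff.2 (Or.inr e))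

theorem idx_ne {a b : Fin n ⊕ Fin n} (h : a ≠ b) (h' : a ≠ b.swap) : idx a ≠ idx b :=
  fun e => (idx_eq_iff.1 e).elim h h'

/-- the weights of the natural module -/
def ε : Fin n ⊕ Fin n → Fin n → ℤ
  | inl i => Pi.single i 1
  | inr i => -Pi.single i 1

@[simp] theorem ε_swap (a : Fin n ⊕ Fin n) : ε a.swap = -ε a := by cases a <;> simp [ε]

/-- the inner product of two weights -/
def ip (a b : Fin n ⊕ Fin n) : ℤ := if a = b then 1 else if a = b.swap then -1 else 0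

theorem ε_dot (a b : Fin n ⊕ Fin n) : ε a ⬝ᵥ ε b = ip a b := by
  cases a <;> cases b <;> simp [ε, ip, Pi.single_apply, eq_comm] <;> split_ifs <;> rfl

@[simp] theorem ip_self (a : Fin n ⊕ Fin n) : ip a a = 1 := if_pos rfl

@[simp] theorem ip_swap_right (a b : Fin n ⊕ Fin n) : ip a b.swap = -ip a b := by
  rw [← ε_dot, ← ε_dot, ε_swap, dotProduct_neg]

@[simp] theorem ip_swap_left (a b : Fin n ⊕ Fin n) : ip a.swap b = -ip a b := by
  rw [← ε_dot, ← ε_dot, ε_swap, neg_dotProduct]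

theorem ip_comm (a b : Fin n ⊕ Fin n) : ip a b = ip b a := by rw [← ε_dot, ← ε_dot, dotProduct_comm]

theorem ip_eq_zero {a b : Fin n ⊕ Fin n} (h : idx a ≠ idx b) : ip a b = 0 := by
  rw [ip, if_neg (ne_of_idx h), if_neg (ne_swap_of_idx h)]

theorem ip_cases (a b : Fin n ⊕ Fin n) :
    a = b ∧ ip a b = 1 ∨ a = b.swap ∧ ip a b = -1 ∨ idx a ≠ idx b ∧ ip a b = 0 := by
  by_cases h : idx a = idx b
  · rcases idx_eq_iff.1 h with rfl | rfl <;> simp
  · exact Or.inr (Or.inr ⟨h, ip_eq_zero h⟩)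

theorem exists_dot {w : Fin n → ℤ} (h : w ≠ 0) : ∃ a, 1 ≤ w ⬝ᵥ ε a := by
  obtain ⟨i, hi⟩ := Function.ne_iff.1 h
  rcases lt_or_gt_of_ne hi with c | c
  · exact ⟨inr i, by simp [ε]; simp at c; omega⟩
  · exact ⟨inl i, by simp [ε]; simp at c; omega⟩

theorem norm_sub (w : Fin n → ℤ) (a : Fin n ⊕ Fin n) :
    (w - ε a) ⬝ᵥ (w - ε a) = w ⬝ᵥ w - 2 * (w ⬝ᵥ ε a) + 1 := by
  rw [sub_dotProduct, dotProduct_sub, dotProduct_sub, ε_dot, ip_self, dotProduct_comm (ε a)]; ring

theorem norm_nonneg' (w : Fin n → ℤ) : 0 ≤ w ⬝ᵥ w := sum_nonneg fun _ _ => mul_self_nonneg _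

theorem norm_two {w : Fin n → ℤ} (h : w ⬝ᵥ w = 2) : ∃ a b, idx a ≠ idx b ∧ w = ε a - ε b := by
  obtain ⟨a, ha⟩ := exists_dot (w := w) (by rintro rfl; simp at h)
  have h1 := norm_sub w a
  have h2 := norm_nonneg' (w - ε a)
  obtain ⟨b, hb⟩ := exists_dot (w := w - ε a) (fun e => by rw [e] at h1; simp at h1; omega)
  have h3 := norm_sub (w - ε a) b
  have h4 := norm_nonneg' (w - ε a - ε b)
  have h5 : w - ε a - ε b = 0 := dotProduct_self_eq_zero.1 (by omega)
  have h6 : w = ε a + ε b := by rw [← sub_eq_zero, ← h5]; abel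
  refine ⟨a, b.swap, ?_, by simp [h6]⟩
  rw [h6, add_dotProduct, ε_dot, ε_dot, ip_self] at ha
  rw [h6] at h
  simp only [add_dotProduct, dotProduct_add, ε_dot, ip_self, ip_comm b a] at h
  rcases ip_cases a b with c | c | c
  · omega
  · omega
  · simpa using c.1

end Eps

variable {m : ℕ}

/-- the weights -/
abbrev Wt (m : ℕ) := Fin (m + 4) ⊕ Fin (m + 4)

/-- the simple root `i` is `ε (sa i) - ε (sb i)` -/
def sa (i : Fin (m + 4)) : Wt m := inl (if (i : ℕ) = m + 3 then ⟨m + 2, by omega⟩ else i)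

/-- the simple root `i` is `ε (sa i) - ε (sb i)` -/
def sb (i : Fin (m + 4)) : Wt m := if h : (i : ℕ) = m + 3 then inr i else inl ⟨i + 1, by omega⟩

theorem idx_sa_ne (i : Fin (m + 4)) : idx (sa i) ≠ idx (sb i) := by
  unfold sa sb; split_ifs <;> simp [Fin.ext_iff]; omega

/-- from coordinates on the simple roots to `ε`-coordinates -/
def EE (m : ℕ) : (Fin (m + 4) → ℤ) →ₗ[ℤ] (Fin (m + 4) → ℤ) :=
  Fintype.linearCombination ℤ fun i => ε (sa i) - ε (sb i)

theorem EE_sroot (i : Fin (m + 4)) : EE m (sroot i) = ε (sa i) - ε (sb i) := by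
  simp [EE, sroot]

/-- twice the fundamental coweights -/
def om (i j : Fin (m + 4)) : ℤ :=
  if (i : ℕ) < m + 2 then (if j ≤ i then 2 else 0) else if (i : ℕ) = m + 2 ∧ (j : ℕ) = m + 3 then -1 else 1

theorem om_dot (i k : Fin (m + 4)) : om i ⬝ᵥ (ε (sa k) - ε (sb k)) = if k = i then 2 else 0 := by
  have h : ∀ j, om i ⬝ᵥ ε (inl j) = om i j ∧ om i ⬝ᵥ ε (inr j) = -om i j := fun j => by simp [ε]
  rw [dotProduct_sub, sa, sb]
  split_ifs <;> simp only [h] <;> simp only [om, Fin.ext_iff, Fin.le_def] at * <;> split_ifs <;> omega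

theorem om_EE (i : Fin (m + 4)) (v : Fin (m + 4) → ℤ) : om i ⬝ᵥ EE m v = 2 * v i := by
  simp only [EE, Fintype.linearCombination_apply, dotProduct_sum, dotProduct_smul, om_dot]
  simp [mul_comm]

theorem EE_inj : Function.Injective (EE m) := fun u v e => funext fun i => by
  have := om_EE i u; rw [e, om_EE] at this; omega

/-- the Cartan matrix -/
def cA (i j : Fin (m + 4)) : ℤ :=
  if i = j then 2 else if ((i : ℕ) + 1 = j ∧ (j : ℕ) ≠ m + 3) ∨ ((j : ℕ) + 1 = i ∧ (i : ℕ) ≠ m + 3) ∨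
    ((i : ℕ) = m + 1 ∧ (j : ℕ) = m + 3) ∨ ((j : ℕ) = m + 1 ∧ (i : ℕ) = m + 3) then -1 else 0

theorem cA_eq (i j : Fin (m + 4)) : (ε (sa i) - ε (sb i)) ⬝ᵥ (ε (sa j) - ε (sb j)) = cA i j := by
  simp only [sub_dotProduct, dotProduct_sub, ε_dot, sa, sb, cA]
  split_ifs <;> simp [ip, Fin.ext_iff] at * <;> split_ifs <;> omega

theorem bil_cA (u v : Fin (m + 4) → ℤ) : bil cA u v = EE m u ⬝ᵥ EE m v := by
  simp only [bil_apply, scoroot, LinearMap.coe_mk, AddHom.coe_mk, EE, Fintype.linearCombination_apply,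
    sum_dotProduct, dotProduct_sum, smul_dotProduct, dotProduct_smul, cA_eq, smul_eq_mul, mul_sum]
  rw [sum_comm]
  exact sum_congr rfl fun _ _ => sum_congr rfl fun _ _ => by ring

theorem exists_cv (a b : Wt m) : ∃ v, EE m v = ε a - ε b := by
  have h1 : ∀ i : Fin (m + 4), ε (inl 0) - ε (inl i) ∈ (EE m).range := fun i => by
    induction i using Fin.induction with
    | zero => simp
    | succ i ih =>
      have := add_mem ih (LinearMap.mem_range_self (EE m) (sroot i.castSucc))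
      rw [EE_sroot, sa, sb, if_neg (by simp; omega), dif_neg (by simp; omega), sub_add_sub_cancel] at this
      exact this
  have h2 : ∀ a : Wt m, ε (inl 0) - ε a ∈ (EE m).range := by
    rintro (i | i)
    · exact h1 i
    have h3 := LinearMap.mem_range_self (EE m) (sroot (Fin.last _))
    rw [EE_sroot, sa, sb, if_pos (by simp), dif_pos (by simp)] at h3
    convert sub_mem (add_mem (add_mem (h1 ⟨m + 2, by omega⟩) h3) (h1 (Fin.last _))) (h1 i) using 1
    simp only [ε]; abel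
  obtain ⟨v, hv⟩ := sub_mem (h2 b) (h2 a)
  exact ⟨v, by rw [hv]; abel⟩

/-- the coordinates of `ε a - ε b` -/
noncomputable def cv (a b : Wt m) : Fin (m + 4) → ℤ := (exists_cv a b).choose

theorem EE_cv (a b : Wt m) : EE m (cv a b) = ε a - ε b := (exists_cv a b).choose_spec

theorem exists_of_norm {v : Fin (m + 4) → ℤ} (h : bil cA v v = 2) :
    ∃ a b, idx a ≠ idx b ∧ v = cv a b := by
  obtain ⟨a, b, h1, h2⟩ := norm_two ((bil_cA v v).symm.trans h)
  exact ⟨a, b, h1, EE_inj (by rw [h2, EE_cv])⟩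

/-- The Cartan matrix of type `D`. -/
def pdD (m : ℕ) : PD (m + 4) where
  A := cA
  symm i j := by rw [← cA_eq, ← cA_eq, dotProduct_comm]
  diag i := if_pos rfl
  off i j h := by rw [cA, if_neg h]; split_ifs <;> simp
  pos v h := by
    rw [bil_cA]
    exact (norm_nonneg' _).lt_of_ne' fun e => h (EE_inj (by simpa using dotProduct_self_eq_zero.1 e))
  fin := (Set.finite_range fun p : Wt m × Wt m => cv p.1 p.2).subset fun v h => by
    obtain ⟨a, b, -, e⟩ := exists_of_norm h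
    exact ⟨(a, b), e.symm⟩
  conn J h1 h2 := by
    by_contra! h
    have h3 : ∀ i j, cA i j ≠ 0 → (i ∈ J ↔ j ∈ J) := fun i j c =>
      ⟨fun a => by_contra fun b => c (h i a j b), fun a => by_contra fun b => c (by
        rw [← cA_eq, dotProduct_comm, cA_eq]; exact h j a i b)⟩
    have h4 : ∀ k (hk : k < m + 3), (⟨k, by omega⟩ ∈ J ↔ 0 ∈ J) := fun k hk => by
      induction k with
      | zero => rfl
      | succ k ih => rw [← ih (by omega)]; exact h3 _ _ (by simp [cA]; omega)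
    have h5 : ∀ i, i ∈ J ↔ 0 ∈ J := fun i => by
      by_cases c : (i : ℕ) < m + 3
      · exact h4 i c
      · rw [← h4 (m + 1) (by omega)]; exact h3 _ _ (by simp [cA, Fin.ext_iff]; omega)
    obtain ⟨i, hi⟩ := h1
    obtain ⟨j, hj⟩ := h2
    exact hj ((h5 j).2 ((h5 i).1 hi))
  npos := by omega

/-- The datum of type `D_{m+4}`. -/
noncomputable abbrev dD (m : ℕ) : ChevalleyDatum := (pdD m).dat

/-- The root table of type `D_{m+4}`. -/
noncomputable abbrev tD (m : ℕ) : RootTable (dD m) := (pdD m).tab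

/-- the index of the root `ε a - ε b` -/
noncomputable def rt (a b : Wt m) : ℕ := (pdD m).ix (cv a b)

variable {a b c d : Wt m}

theorem cv_mem (h : idx a ≠ idx b) : cv a b ∈ (pdD m).Φ := (pdD m).mem_Φ.2 (by
  change bil cA _ _ = 2
  simp [bil_cA, EE_cv, ε_dot, ip_eq_zero h, ip_eq_zero h.symm])

theorem rt_lt (h : idx a ≠ idx b) : rt a b < 2 * (tD m).N := (pdD m).ix_lt (cv_mem h)

theorem vec_rt (h : idx a ≠ idx b) : (tD m).vec (rt a b) = cv a b := (pdD m).vec_ix (cv_mem h)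

theorem EE_rt (h : idx a ≠ idx b) : EE m ((tD m).vec (rt a b)) = ε a - ε b := by
  rw [vec_rt h, EE_cv]

theorem exists_rt {r : ℕ} (h : r < 2 * (tD m).N) : ∃ a b : Wt m, idx a ≠ idx b ∧ r = rt a b := by
  obtain ⟨a, b, h1, e⟩ := exists_of_norm ((pdD m).mem_Φ.1 ((pdD m).vec_mem h))
  exact ⟨a, b, h1, by rw [rt, ← e, (pdD m).ix_vec h]⟩

theorem eq_rt {r : ℕ} (hr : r < 2 * (tD m).N) (h : idx a ≠ idx b)
    (e : EE m ((tD m).vec r) = ε a - ε b) : r = rt a b :=
  (tD m).vec_inj hr (rt_lt h) (EE_inj (by rw [e, EE_rt h]))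

theorem rt_swap (a b : Wt m) : rt b.swap a.swap = rt a b :=
  congrArg (pdD m).ix (EE_inj (by simp only [EE_cv, ε_swap]; abel))

theorem pair_EE {r s : ℕ} (hr : r < 2 * (tD m).N) (hs : s < 2 * (tD m).N) :
    (dD m).pairing r s = EE m ((tD m).vec r) ⬝ᵥ EE m ((tD m).vec s) :=
  ((pdD m).pairing_eq' hr hs).trans (bil_cA _ _)

theorem pair_rt (h : idx a ≠ idx b) (h' : idx c ≠ idx d) :
    (dD m).pairing (rt a b) (rt c d) = ip a c - ip a d - ip b c + ip b d := by
  rw [pair_EE (rt_lt h) (rt_lt h'), EE_rt h, EE_rt h']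
  simp only [sub_dotProduct, dotProduct_sub, ε_dot]; ring

theorem rt_eq_iff (h : idx a ≠ idx b) (h' : idx c ≠ idx d) :
    rt a b = rt c d ↔ a = c ∧ b = d ∨ a = d.swap ∧ b = c.swap := by
  refine ⟨fun e => ?_, ?_⟩
  · have h1 := pair_rt h h'
    rw [e, (tD m).pairing_self _ (rt_lt h')] at h1
    have := ip_cases a c; have := ip_cases a d; have := ip_cases b c; have := ip_cases b d
    grind [idx_swap]
  · rintro (⟨rfl, rfl⟩ | ⟨rfl, rfl⟩)
    · rfl
    · exact rt_swap _ _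

theorem neg_rt (h : idx a ≠ idx b) : (dD m).neg (rt a b) = rt b a :=
  eq_rt ((tD m).neg_lt (rt_lt h)) h.symm (by rw [(tD m).vec_neg _ (rt_lt h), map_neg, EE_rt h, neg_sub])

theorem simple_rt (i : Fin (m + 4)) : (dD m).simple i = rt (sa i) (sb i) :=
  eq_rt ((tD m).simple_lt i) (idx_sa_ne i) (by rw [(tD m).vec_simple, EE_sroot])

theorem sm_rt (h1 : idx a ≠ idx b) (h2 : idx b ≠ idx c) (h3 : idx a ≠ idx c) :
    Sm (tD m) (rt a b) (rt b c) (rt a c) :=
  ⟨rt_lt h1, rt_lt h2, rt_lt h3, EE_inj (by rw [map_add, EE_rt h1, EE_rt h2, EE_rt h3]; abel)⟩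

/-- the height of a weight -/
def κ : Wt m → ℤ
  | inl i => m + 3 - i
  | inr i => i - (m + 3)

@[simp] theorem κ_swap (a : Wt m) : κ a.swap = -κ a := by cases a <;> simp [κ]

theorem κ_ne (h : idx a ≠ idx b) : κ a ≠ κ b := by
  rcases a with a | a <;> rcases b with b | b <;> simp [κ, Fin.ext_iff] at h ⊢ <;> omega

theorem ht_rt (h : idx a ≠ idx b) : ht (tD m) (rt a b) = κ a - κ b := by
  have h1 : ∀ a : Wt m, (fun i => κ (inl i)) ⬝ᵥ ε a = κ a := by rintro (a | a) <;> simp [ε, κ]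
  have h2 : ∀ v, (fun i => κ (inl i)) ⬝ᵥ EE m v = ∑ i, v i := fun v => by
    simp only [EE, Fintype.linearCombination_apply, dotProduct_sum, dotProduct_smul, dotProduct_sub, h1]
    refine sum_congr rfl fun i _ => ?_
    unfold sa sb
    split_ifs with c <;> simp [κ, c]
  rw [ht, ← h1, ← h1, ← dotProduct_sub, ← EE_rt h, h2]

theorem pos_iff_ht {D : ChevalleyDatum} (T : RootTable D) {r : ℕ} (hr : r < 2 * T.N) :
    T.N ≤ r ↔ 0 < ht T r := by
  refine ⟨fun c => ?_, fun c => by_contra fun e => ?_⟩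
  · obtain ⟨i, hi⟩ := Function.ne_iff.1 (T.vec_ne_zero hr)
    exact sum_pos' (fun j _ => T.vec_nonneg r c hr j) ⟨i, mem_univ _,
      (T.vec_nonneg r c hr i).lt_of_ne' hi⟩
  · exact absurd c (not_lt.2 (sum_nonpos fun j _ => T.vec_nonpos (by omega) j))

theorem pos_rt (h : idx a ≠ idx b) : (tD m).N ≤ rt a b ↔ κ b < κ a := by
  rw [pos_iff_ht _ (rt_lt h), ht_rt h, sub_pos]

theorem exists_idx (p q r : Fin (m + 4)) : ∃ j, j ≠ p ∧ j ≠ q ∧ j ≠ r := by
  by_contra! h
  have : (univ : Finset (Fin (m + 4))) ⊆ {p, q, r} := fun j _ => by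
    simp only [mem_insert, mem_singleton]; have := h j; tauto
  have := (card_le_card this).trans card_le_three
  simp at this

theorem pair_one {r s : ℕ} (hr : r < 2 * (tD m).N) (hs : s < 2 * (tD m).N)
    (h : (dD m).pairing r s = 1) : ∃ a b c : Wt m, idx a ≠ idx b ∧ idx a ≠ idx c ∧ idx b ≠ idx c ∧
      r = rt a b ∧ s = rt a c := by
  obtain ⟨a, b, h1, rfl⟩ := exists_rt hr
  obtain ⟨c, d, h2, rfl⟩ := exists_rt hs
  rw [pair_rt h1 h2] at h
  have := ip_cases a c; have := ip_cases a d; have := ip_cases b c; have := ip_cases b d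
  by_cases e1 : a = c
  · exact ⟨a, b, d, h1, by grind, by grind [idx_swap], rfl, by rw [e1]⟩
  by_cases e2 : a = d.swap
  · exact ⟨a, b, c.swap, h1, by grind [idx_swap], by grind [idx_swap], rfl, by rw [e2, rt_swap]⟩
  by_cases e3 : b = c.swap
  · exact ⟨b.swap, a.swap, d, by simpa using h1.symm, by grind [idx_swap], by grind [idx_swap],
      (rt_swap _ _).symm, by simp [e3]⟩
  · exact ⟨b.swap, a.swap, c.swap, by simpa using h1.symm, by grind [idx_swap], by grind [idx_swap],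
      (rt_swap _ _).symm, by rw [show b = d by grind [idx_swap], rt_swap]⟩

theorem sm_cases {r s k : ℕ} (h : Sm (tD m) r s k) : ∃ a b c : Wt m, idx a ≠ idx b ∧ idx b ≠ idx c ∧
    idx a ≠ idx c ∧ r = rt a b ∧ s = rt b c ∧ k = rt a c := by
  have h1 : (dD m).pairing r s = -1 := by
    rw [(pdD m).pairing_eq' h.hr h.hs, ← (pdD m).add_mem_iff ((pdD m).vec_mem h.hr) ((pdD m).vec_mem h.hs)]
    exact h.eq ▸ (pdD m).vec_mem h.hk
  obtain ⟨a, b, c, h2, h3, h4, h5, rfl⟩ := pair_one ((tD m).neg_lt h.hr) h.hs (by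
    rw [(tD m).pairing_neg_left h.hr, h1]; rfl)
  obtain rfl : r = rt b a := by rw [← neg_rt h2, ← h5, (tD m).neg_neg h.hr]
  exact ⟨b, a, c, h2.symm, h3, h4, rfl, rfl, h.uniq (sm_rt h2.symm h3 h4)⟩

theorem pair_zero {r s : ℕ} (hr : r < 2 * (tD m).N) (hs : s < 2 * (tD m).N)
    (h : (dD m).pairing r s = 0) : (∃ a b : Wt m, idx a ≠ idx b ∧ r = rt a b ∧ s = rt a b.swap) ∨
      ∃ a b c d : Wt m, idx a ≠ idx b ∧ idx a ≠ idx c ∧ idx a ≠ idx d ∧ idx b ≠ idx c ∧
        idx b ≠ idx d ∧ idx c ≠ idx d ∧ r = rt a b ∧ s = rt c d := by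
  obtain ⟨a, b, h1, rfl⟩ := exists_rt hr
  obtain ⟨c, d, h2, rfl⟩ := exists_rt hs
  rw [pair_rt h1 h2] at h
  have := ip_cases a c; have := ip_cases a d; have := ip_cases b c; have := ip_cases b d
  by_cases e1 : a = c
  · exact Or.inl ⟨a, b, h1, rfl, by rw [e1, show b = d.swap by grind [idx_swap], swap_swap]⟩
  by_cases e2 : a = d.swap
  · exact Or.inl ⟨a, b, h1, rfl, by rw [e2, show b = c by grind [idx_swap], rt_swap]⟩
  by_cases e3 : a = c.swap
  · exact Or.inl ⟨b.swap, a.swap, by simpa using h1.symm, (rt_swap _ _).symm, by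
      rw [e3, show b = d by grind [idx_swap], swap_swap, rt_swap]⟩
  by_cases e4 : a = d
  · exact Or.inl ⟨b.swap, a.swap, by simpa using h1.symm, (rt_swap _ _).symm, by
      rw [e4, show b = c.swap by grind [idx_swap], swap_swap, swap_swap]⟩
  exact Or.inr ⟨a, b, c, d, h1, by grind [idx_swap], by grind [idx_swap], by grind [idx_swap],
    by grind [idx_swap], h2, rfl, rfl⟩

end Cfsg.Agent.DRT
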