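import Mathlib
import Cfsg.Agent.DRT.Dn

/-! Type `D_n`: the Weyl group, `SL`, the highest root, the diagram symmetries. -/

set_option autoImplicit false

namespace Cfsg.Agent.DRT

open Cfsg.Lie Cfsg.Agent.Chev Finset Sum SLE Equiv

variable {m : ℕ} {a b c d : Wt m}

/-- `σ` commutes with the negation of the weights -/
def Sg (σ : Perm (Wt m)) : Prop := ∀ a, σ a.swap = (σ a).swap

namespace Sg

variable {σ σ' : Perm (Wt m)}

theorem one : Sg (1 : Perm (Wt m)) := fun _ => rfl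

theorem mul (h : Sg σ) (h' : Sg σ') : Sg (σ * σ') := fun a => by simp [h' a, h _]

theorem inv (h : Sg σ) : Sg σ⁻¹ := fun a => σ.injective (by simp [h _])

theorem idx_iff (h : Sg σ) : idx (σ a) = idx (σ b) ↔ idx a = idx b := by
  simp only [idx_eq_iff, ← h b, σ.apply_eq_iff_eq]

theorem ne (h : Sg σ) (e : idx a ≠ idx b) : idx (σ a) ≠ idx (σ b) := h.idx_iff.not.2 e

theorem ip (h : Sg σ) (a b : Wt m) : ip (σ a) (σ b) = ip a b := by
  simp only [DRT.ip, ← h b, σ.apply_eq_iff_eq]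

end Sg

/-- the reflection in `ε a - ε b` on the weights -/
def sw (a b : Wt m) : Perm (Wt m) := Equiv.swap a b * Equiv.swap a.swap b.swap

theorem sw_spec (h : idx a ≠ idx b) (c : Wt m) :
    (c = a ∧ sw a b c = b) ∨ (c = b ∧ sw a b c = a) ∨ (c = a.swap ∧ sw a b c = b.swap) ∨
      (c = b.swap ∧ sw a b c = a.swap) ∨ (idx c ≠ idx a ∧ idx c ≠ idx b ∧ sw a b c = c) := by
  have := ne_swap a; have := ne_swap b
  have := @idx_eq_iff _ c a; have := @idx_eq_iff _ c b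
  simp only [sw, Perm.mul_apply, swap_apply_def]
  grind [idx_swap]

theorem sw_left (h : idx a ≠ idx b) : sw a b a = b := by
  have := sw_spec h a; have := ne_swap a; grind [idx_swap]

theorem sw_right (h : idx a ≠ idx b) : sw a b b = a := by
  have := sw_spec h b; have := ne_swap b; grind [idx_swap]

theorem sw_other (h : idx a ≠ idx b) (h1 : idx c ≠ idx a) (h2 : idx c ≠ idx b) : sw a b c = c := by
  have := sw_spec h c; grind [idx_swap]

theorem sg_sw (h : idx a ≠ idx b) : Sg (sw a b) := fun c => by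
  have := sw_spec h c; have := sw_spec h c.swap
  have := ne_swap a; have := ne_swap b; have := Sum.swap_swap c
  have := Sum.swap_swap a; have := Sum.swap_swap b
  grind [idx_swap]

theorem ε_sw (h : idx a ≠ idx b) (c : Wt m) :
    ε (sw a b c) = ε c - (ip a c - ip b c) • (ε a - ε b) := by
  have h1 := ip_eq_zero h
  have h2 := ip_eq_zero h.symm
  rcases sw_spec h c with ⟨rfl, e⟩ | ⟨rfl, e⟩ | ⟨rfl, e⟩ | ⟨rfl, e⟩ | ⟨p, q, e⟩ <;> rw [e]
  · simp [h2]
  · simp [h1]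
  · simp [h2]; abel
  · simp [h1]; abel
  · simp [ip_eq_zero p.symm, ip_eq_zero q.symm]

theorem act_rw_rt (h : idx a ≠ idx b) (h' : idx c ≠ idx d) :
    (tD m).act ((tD m).rw (rt a b)) (rt c d) = rt (sw a b c) (sw a b d) :=
  eq_rt ((tD m).act_lt _ (rt_lt h')) ((sg_sw h).ne h') (by
    rw [(tD m).vec_rw (rt_lt h) (rt_lt h'), map_sub, map_zsmul, EE_rt h, EE_rt h', ε_sw h, ε_sw h,
      pair_rt h h']
    module)

/-- `σ` is induced by an element of the Weyl group -/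
def Re (σ : Perm (Wt m)) : Prop := Sg σ ∧ ∃ w : (tD m).W, ∀ c d : Wt m, idx c ≠ idx d →
  (tD m).act w (rt c d) = rt (σ c) (σ d)

theorem Re.one : Re (1 : Perm (Wt m)) := ⟨Sg.one, 1, fun _ _ _ => (tD m).act_one _⟩

theorem Re.mul {σ σ' : Perm (Wt m)} (h : Re σ) (h' : Re σ') : Re (σ * σ') := by
  obtain ⟨a, w, hw⟩ := h
  obtain ⟨b, w', hw'⟩ := h'
  exact ⟨a.mul b, w * w', fun c d e => by rw [(tD m).act_mul, hw' c d e, hw _ _ (b.ne e)]; rfl⟩

theorem re_sw (h : idx a ≠ idx b) : Re (sw a b) := ⟨sg_sw h, _, fun _ _ => act_rw_rt h⟩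

theorem exists_re_of_w (w : (tD m).W) : ∃ σ : Perm (Wt m), Sg σ ∧ ∀ c d : Wt m, idx c ≠ idx d →
    (tD m).act w (rt c d) = rt (σ c) (σ d) := by
  induction w using (tD m).cs.simple_induction_left with
  | one => exact ⟨1, Sg.one, fun _ _ _ => (tD m).act_one _⟩
  | mul_simple_left w i ih =>
    obtain ⟨σ, h1, h2⟩ := ih
    refine ⟨sw (sa i) (sb i) * σ, (sg_sw (idx_sa_ne i)).mul h1, fun c d e => ?_⟩
    rw [(tD m).act_mul, h2 c d e, ← (tD m).rw_simple, simple_rt, act_rw_rt (idx_sa_ne i) (h1.ne e)]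
    rfl

theorem exists_mv (a a' : Wt m) (p q : Fin (m + 4)) : ∃ σ, Re σ ∧ σ a = a' ∧
    ∀ c, idx c = p ∨ idx c = q → idx c ≠ idx a → idx c ≠ idx a' → σ c = c := by
  by_cases h : idx a = idx a'
  · rcases idx_eq_iff.1 h with rfl | rfl
    · exact ⟨1, Re.one, rfl, fun _ _ _ _ => rfl⟩
    obtain ⟨j, h1, h2, h3⟩ := exists_idx (idx a') p q
    have h4 : idx a'.swap ≠ idx (inl j) := by simpa using h1.symm
    replace h1 : idx (inl j : Wt m) ≠ idx a' := h1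
    refine ⟨sw (inl j) a' * sw a'.swap (inl j), (re_sw h1).mul (re_sw h4), by
      rw [Perm.mul_apply, sw_left h4, sw_left h1], fun c e1 e2 e3 => ?_⟩
    have h5 : idx c ≠ idx (inl j) := by 
      rcases e1 with e | e <;> rw [e]
      exacts [h2.symm, h3.symm]
    rw [Perm.mul_apply, sw_other h4 e2 h5, sw_other h1 h5 e3]
  · exact ⟨_, re_sw h, sw_left h, fun c _ => sw_other h⟩

theorem exists_re3 {a b c a' b' c' : Wt m} (h1 : idx a ≠ idx b) (h2 : idx a ≠ idx c)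
    (h3 : idx b ≠ idx c) (h4 : idx a' ≠ idx b') (h5 : idx a' ≠ idx c') (h6 : idx b' ≠ idx c') :
    ∃ σ, Re σ ∧ σ a = a' ∧ σ b = b' ∧ σ c = c' := by
  obtain ⟨σ, r1, e1, -⟩ := exists_mv a a' 0 0
  obtain ⟨τ, r2, e2, f2⟩ := exists_mv (σ b) b' (idx a') (idx a')
  have g2 := f2 a' (Or.inl rfl) (e1 ▸ r1.1.ne h1) h4
  obtain ⟨ρ, r3, e3, f3⟩ := exists_mv (τ (σ c)) c' (idx a') (idx b')
  refine ⟨ρ * (τ * σ), r3.mul (r2.mul r1), ?_, ?_, e3⟩
  · simp only [Perm.mul_apply, e1, g2]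
    exact f3 a' (Or.inl rfl) (by rw [← g2, ← e1]; exact r2.1.ne (r1.1.ne h2)) h5
  · simp only [Perm.mul_apply, e2]
    exact f3 b' (Or.inr rfl) (by rw [← e2]; exact r2.1.ne (r1.1.ne h3)) h6

theorem exists_third' (a b : Wt m) : ∃ c : Wt m, idx a ≠ idx c ∧ idx b ≠ idx c := by
  obtain ⟨j, h1, h2, -⟩ := exists_idx (idx a) (idx b) 0
  exact ⟨inl j, h1.symm, h2.symm⟩

theorem slD (m : ℕ) : SL (tD m) := by
  refine (pdD m).sl (fun r hr s hs => ?_) (fun r hr s hs r' hr' s' hs' h h' => ?_) ?_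
  · obtain ⟨a, b, h1, rfl⟩ := exists_rt hr
    obtain ⟨a', b', h2, rfl⟩ := exists_rt hs
    obtain ⟨c, h3, h4⟩ := exists_third' a b
    obtain ⟨c', h5, h6⟩ := exists_third' a' b'
    obtain ⟨σ, ⟨-, w, hw⟩, rfl, rfl, -⟩ := exists_re3 h1 h3 h4 h2 h5 h6
    exact ⟨w, hw a b h1⟩
  · obtain ⟨a, b, c, h1, h2, h3, rfl, rfl⟩ := pair_one hr hs h
    obtain ⟨a', b', c', h4, h5, h6, rfl, rfl⟩ := pair_one hr' hs' h'
    obtain ⟨σ, ⟨-, w, hw⟩, rfl, rfl, rfl⟩ := exists_re3 h1 h2 h3 h4 h5 h6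
    exact ⟨w, hw a b h1, hw a c h2⟩
  · have h : ∀ k (hk : k + 1 < m + 4), idx (inl 0 : Wt m) ≠ idx (inl ⟨k + 1, hk⟩) := fun k hk => by
      simp [Fin.ext_iff]
    refine ⟨_, rt_lt (h 0 (by omega)), _, rt_lt (h 1 (by omega)), _, rt_lt (h 2 (by omega)), ?_, ?_, ?_⟩ <;>
      rw [pair_rt (h _ _) (h _ _)] <;> simp [ip, Fin.ext_iff]

theorem g2D : ∀ a < 2 * (tD m).N, ∀ b < 2 * (tD m).N, (dD m).pairing a b = 0 →
    ∃ d < 2 * (tD m).N, (dD m).pairing d a = 1 ∧ (dD m).pairing d b = 1 := by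
  intro r hr s hs h
  rcases pair_zero hr hs h with ⟨a, b, h1, rfl, rfl⟩ | ⟨a, b, c, d, h1, h2, h3, h4, h5, h6, rfl, rfl⟩
  · obtain ⟨c, h2, h3⟩ := exists_third' a b
    refine ⟨_, rt_lt h2, ?_, ?_⟩ <;> rw [pair_rt h2 (by simpa using h1)] <;>
      simp [ip_eq_zero, h1, h2.symm, h3.symm]
  · refine ⟨_, rt_lt h3, ?_, ?_⟩
    · rw [pair_rt h3 h1]; simp [ip_eq_zero, h1, h3.symm, h5.symm]
    · rw [pair_rt h3 h6]; simp [ip_eq_zero, h2, h3, h6.symm]

theorem idx_01 : idx (inl 0 : Wt m) ≠ idx (inr 1) := by simp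

theorem val_1 : ((1 : Fin (m + 4)) : ℕ) = 1 := rfl

theorem hi_eq (m : ℕ) : hi (tD m) = rt (inl 0 : Wt m) (inr 1) := by
  obtain ⟨a, b, h, e⟩ := exists_rt (hi_lt (tD m))
  have key : ∀ c d : Wt m, idx c ≠ idx d → κ d < κ c → 0 ≤ ip a c - ip a d - ip b c + ip b d :=
    fun c d p q => by
      rw [← pair_rt h p, ← e]; exact (slD m).hi_nonneg ((pos_rt p).2 q) (rt_lt p)
  obtain ⟨k, k1, k2, -⟩ := exists_idx (idx a) (idx b) 0
  have hk := k.2
  obtain ⟨i, rfl⟩ : ∃ i, a = inl i := by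
    rcases a with i | i
    · exact ⟨i, rfl⟩
    have := key (inl k) (inr i) k1 (by have := i.2; simp [κ, Fin.ext_iff] at k1 ⊢; omega)
    simp [ip_eq_zero (b := inl k) k1.symm, ip_eq_zero (b := inl k) k2.symm, ip_eq_zero h.symm] at this
  obtain ⟨j, rfl⟩ : ∃ j, b = inr j := by
    rcases b with j | j
    swap
    · exact ⟨j, rfl⟩
    have := key (inl k) (inr j) k2 (by have := j.2; simp [κ, Fin.ext_iff] at k2 ⊢; omega)
    simp only [idx_inl] at h k1 k2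
    simp [ip, h, k1.symm, k2.symm] at this
  simp only [idx_inl, idx_inr] at h
  have k0 : ∀ l l' : Fin (m + 4), l < l' → l' = i ∨ l' = j → l = i ∨ l = j := fun l l' p q => by
    by_contra! c
    have := key (inl l) (inl l') p.ne (by simp [κ]; omega)
    rcases q with rfl | rfl <;> simp [ip, c.1.symm, c.2.symm, h, h.symm] at this
  have k1 := k0 0 i
  have k2 := k0 0 j
  have k3 := k0 1 i
  have k4 := k0 1 j
  rw [e, rt_eq_iff (by simpa) idx_01]
  simp only [Fin.ext_iff, Fin.lt_def, val_1, Fin.val_zero, inl.injEq, inr.injEq, swap_inl, swap_inr,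
    ne_eq, true_or, or_true, forall_const] at k1 k2 k3 k4 h ⊢
  omega

theorem alphaD : ∃ i : Fin (dD m).rank, (dD m).pairing (hi (tD m)) ((dD m).simple i) = 1 ∧
    ∀ j, j ≠ i → (dD m).pairing (hi (tD m)) ((dD m).simple j) = 0 := by
  refine ⟨(1 : Fin (m + 4)), ?_, fun (j : Fin (m + 4)) hj => ?_⟩ <;>
    rw [hi_eq, simple_rt, pair_rt idx_01 (idx_sa_ne _)] <;> unfold sa sb
  · simp [ip, Fin.ext_iff]
  · split_ifs <;> simp only [ip, Fin.ext_iff, val_1, Fin.val_zero, inl.injEq, inr.injEq, swap_inl,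
      swap_inr, ne_eq, reduceCtorEq, if_false] at * <;> split_ifs <;> omega

/-- the graph symmetry of the diagram -/
def γD (m : ℕ) : Perm (Fin (m + 4)) := Equiv.swap ⟨m + 2, by omega⟩ ⟨m + 3, by omega⟩

theorem diagD (ρ : Perm (Fin (m + 4))) (h : ∀ i k, cA (ρ i) (ρ k) = cA i k) :
    ρ = 1 ∨ ρ = γD m ∨ m = 0 := by
  by_cases h0 : m = 0
  · exact Or.inr (Or.inr h0)
  obtain ⟨f, hf⟩ : ∃ f : ℕ → ℕ, ∀ i : Fin (m + 4), f i = ρ i :=
    ⟨fun i => if h : i < m + 4 then ρ ⟨i, h⟩ else 0, fun i => by simp [i.2]⟩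
  have adj : ∀ i k, i < m + 4 → k < m + 4 → (i = k + 1 ∧ i < m + 3) ∨ (i = m + 1 ∧ k = m + 3) →
      (f i + 1 = f k ∧ f k ≠ m + 3) ∨ (f k + 1 = f i ∧ f i ≠ m + 3) ∨ (f i = m + 1 ∧ f k = m + 3) ∨
      (f k = m + 1 ∧ f i = m + 3) := fun i k a b c => by
    have e : cA (⟨i, a⟩ : Fin (m + 4)) ⟨k, b⟩ = -1 := by
      rw [cA, if_neg (by simp; omega), if_pos (by simp; omega)]
    rw [← h, cA, ← hf, ← hf] at e
    by_contra q
    rw [if_neg q] at e
    split_ifs at e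
  have inj : ∀ i k, i < m + 4 → k < m + 4 → i ≠ k → f i ≠ f k := fun i k a b e c => e (by
    simpa using ρ.injective (a₁ := ⟨i, a⟩) (a₂ := ⟨k, b⟩) (Fin.ext (by rw [← hf, ← hf]; exact c)))
  have a1 := adj (m + 1) m (by omega) (by omega) (by omega)
  have a2 := adj (m + 2) (m + 1) (by omega) (by omega) (by omega)
  have a3 := adj (m + 1) (m + 3) (by omega) (by omega) (by omega)
  have b1 := inj m (m + 2) (by omega) (by omega) (by omega)
  have b2 := inj m (m + 3) (by omega) (by omega) (by omega)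
  have b3 := inj (m + 2) (m + 3) (by omega) (by omega) (by omega)
  have c1 : f (m + 1) = m + 1 := by omega
  have c2 : f m = m := by
    have a4 := adj m (m - 1) (by omega) (by omega) (by omega)
    have b4 := inj (m - 1) (m + 1) (by omega) (by omega) (by omega)
    have b5 := (hf ⟨m - 1, by omega⟩).trans_lt (ρ _).2
    simp only at b5
    omega
  have dn : ∀ k i, i + k = m → f i = i ∧ f (i + 1) = i + 1 := by
    intro k
    induction k with
    | zero => rintro i rfl; exact ⟨c2, c1⟩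
    | succ k ih =>
      intro i e
      obtain ⟨p, q⟩ := ih (i + 1) (by omega)
      have a4 := adj (i + 1) i (by omega) (by omega) (by omega)
      have b4 := inj i (i + 1 + 1) (by omega) (by omega) (by omega)
      omega
  have cs : ∀ i, i < m + 4 → (i < m + 2 ∧ f i = i) ∨ (i = m + 2 ∧ f i = f (m + 2)) ∨
      (i = m + 3 ∧ f i = f (m + 3)) := fun i hi => by
    by_cases c : i ≤ m
    · exact Or.inl ⟨by omega, (dn (m - i) i (by omega)).1⟩
    obtain rfl | rfl | rfl : i = m + 1 ∨ i = m + 2 ∨ i = m + 3 := by omega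
    · exact Or.inl ⟨by omega, c1⟩
    · exact Or.inr (Or.inl ⟨rfl, rfl⟩)
    · exact Or.inr (Or.inr ⟨rfl, rfl⟩)
  by_cases c : f (m + 2) = m + 2
  · refine Or.inl (Equiv.ext fun i => Fin.ext ?_)
    have := cs i i.2
    rw [← hf, Perm.one_apply]
    omega
  · refine Or.inr (Or.inl (Equiv.ext fun i => Fin.ext ?_))
    have := cs i i.2
    rw [← hf, γD, swap_apply_def]
    split_ifs <;> simp only [Fin.ext_iff] at * <;> omega

theorem diag4 : ∀ ρ : Perm (Fin (0 + 4)), (∀ i k, cA (ρ i) (ρ k) = cA i k) →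
    (ρ * ρ = 1 ∨ ρ * ρ * ρ = 1) ∧ (ρ * ρ = 1 → ρ = 1 ∨ Perm.sign ρ = -1 ∧
      ∃ δ : Perm (Fin (0 + 4)), (∀ i k, cA (δ i) (δ k) = cA i k) ∧ δ⁻¹ * ρ * δ = γD 0) := by
  decide +kernel

theorem diagD' (ρ : Perm (Fin (m + 4))) (h : ∀ i k, cA (ρ i) (ρ k) = cA i k) :
    (ρ * ρ = 1 ∨ ρ * ρ * ρ = 1) ∧ (ρ * ρ = 1 → ρ = 1 ∨ Perm.sign ρ = -1 ∧
      ∃ δ : Perm (Fin (m + 4)), (∀ i k, cA (δ i) (δ k) = cA i k) ∧ δ⁻¹ * ρ * δ = γD m) := by
  rcases diagD ρ h with rfl | rfl | rfl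
  · simp
  · exact ⟨Or.inl (swap_mul_self _ _), fun _ => Or.inr ⟨Perm.sign_swap (by simp), 1, fun _ _ => rfl,
      by simp⟩⟩
  · exact diag4 ρ h

/-- the graph symmetry on the weights -/
def gw (m : ℕ) : Perm (Wt m) := Equiv.swap (inl (Fin.last _)) (inr (Fin.last _))

theorem sg_gw : Sg (gw m) := by
  rintro (i | i) <;> simp only [gw, swap_apply_def] <;> split_ifs <;> simp_all

theorem gw_gw (a : Wt m) : gw m (gw m a) = a := swap_apply_self _ _ _

theorem idx_gw (a : Wt m) : idx (gw m a) = idx a := by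
  simp only [gw, swap_apply_def]; split_ifs <;> simp_all

theorem κ_gw (a : Wt m) : κ (gw m a) = κ a := by
  simp only [gw, swap_apply_def]; split_ifs <;> simp_all [κ]

open Classical in
/-- the permutation of the roots induced by a permutation of the weights -/
noncomputable def rp (σ : Perm (Wt m)) (r : ℕ) : ℕ :=
  if h : r < 2 * (tD m).N then rt (σ (exists_rt h).choose) (σ (exists_rt h).choose_spec.choose) else r

theorem rp_rt {σ : Perm (Wt m)} (h : Sg σ) (e : idx a ≠ idx b) : rp σ (rt a b) = rt (σ a) (σ b) := by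
  rw [rp, dif_pos (rt_lt e)]
  obtain ⟨h1, h2⟩ := (exists_rt (rt_lt e)).choose_spec.choose_spec
  generalize (exists_rt (rt_lt e)).choose_spec.choose = d at h1 h2
  generalize (exists_rt (rt_lt e)).choose = c at h1 h2
  rcases (rt_eq_iff e h1).1 h2 with ⟨rfl, rfl⟩ | ⟨rfl, rfl⟩
  · rfl
  · rw [h, h, rt_swap]

/-- the graph symmetry on the roots -/
noncomputable abbrev gr (m : ℕ) : ℕ → ℕ := rp (gw m)

theorem gr_simple (i : Fin (m + 4)) : gr m ((dD m).simple i) = (dD m).simple (γD m i) := by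
  rw [simple_rt, simple_rt, gr, rp_rt sg_gw (idx_sa_ne i)]
  by_cases h1 : (i : ℕ) = m + 2
  · rw [show i = ⟨m + 2, Nat.add_lt_add_left (by decide) m⟩ from Fin.ext h1, γD, swap_apply_left]
    congr 1 <;> simp [sa, sb, gw, swap_apply_def, Fin.ext_iff]
  by_cases h2 : (i : ℕ) = m + 3
  · rw [show i = ⟨m + 3, Nat.add_lt_add_left (by decide) m⟩ from Fin.ext h2, γD, swap_apply_right]
    congr 1 <;> simp [sa, sb, gw, swap_apply_def, Fin.ext_iff]
  rw [γD, swap_apply_of_ne_of_ne (Fin.ne_of_val_ne h1) (Fin.ne_of_val_ne h2)]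
  congr 1 <;> simp [sa, sb, gw, swap_apply_def, Fin.ext_iff, h1, h2]

theorem sym_gr : Sym (tD m) (gr m) where
  lt r hr := by obtain ⟨a, b, h, rfl⟩ := exists_rt hr; rw [gr, rp_rt sg_gw h]; exact rt_lt (sg_gw.ne h)
  inv r hr := by
    obtain ⟨a, b, h, rfl⟩ := exists_rt hr
    rw [gr, rp_rt sg_gw h, rp_rt sg_gw (sg_gw.ne h), gw_gw, gw_gw]
  pos r hr := by
    obtain ⟨a, b, h, rfl⟩ := exists_rt hr
    rw [gr, rp_rt sg_gw h, pos_rt h, pos_rt (sg_gw.ne h), κ_gw, κ_gw]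
  neg r hr := by
    obtain ⟨a, b, h, rfl⟩ := exists_rt hr
    rw [gr, neg_rt h, rp_rt sg_gw h, rp_rt sg_gw h.symm, neg_rt (sg_gw.ne h)]
  sum r s k e := by
    obtain ⟨a, b, c, h1, h2, h3, rfl, rfl, rfl⟩ := sm_cases e
    rw [gr, rp_rt sg_gw h1, rp_rt sg_gw h2, rp_rt sg_gw h3]
    exact sm_rt (sg_gw.ne h1) (sg_gw.ne h2) (sg_gw.ne h3)
  pair r hr s hs := by
    obtain ⟨a, b, h, rfl⟩ := exists_rt hr
    obtain ⟨c, d, h', rfl⟩ := exists_rt hs
    simp only [gr, rp_rt sg_gw h, rp_rt sg_gw h', pair_rt h h', pair_rt (sg_gw.ne h) (sg_gw.ne h'),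
      sg_gw.ip]
  simple i := ⟨_, gr_simple i⟩

end Cfsg.Agent.DRT
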